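import Cfsg.Agent.Lib.Classical.UnitaryTwoGen.Main
import Cfsg.Agent.Lib.BoundedPres.SpTwoGen
import Cfsg.Agent.S0822

/-!
Two generators of `PSU_n` in standard coordinates.
-/

set_option autoImplicit false

namespace Cfsg.Agent.Lib.Classical.UnitaryTwoGen

open Matrix Cfsg.Agent.Lib.AutPSU Cfsg.Agent.Lib.Forms

universe u

variable {F : Type u} [Field F] {q m : ℕ}

/-- The unit vectors outside the first plane. -/
def yStd (k : Fin m) : Fin (2 + m) → F := Fin.append (0 : Fin 2 → F) (Pi.single k 1)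

theorem hm_append (hq0 : q ≠ 0) (u u' : Fin 2 → F) (v v' : Fin m → F) :
    hm q (Fin.append u v) (Fin.append u' v') = hm q u u' + hm q v v' := by
  simp [hm, Cfsg.hermForm, Fin.sum_univ_add]

variable [Fintype F] (hF : Fintype.card F = q ^ 2)
include hF

theorem q_ne : q ≠ 0 := by have := Herm.two_le_q hF; omega

theorem hm_single (v : Fin m → F) (k : Fin m) : hm q v (Pi.single k 1) = v k := by
  simp [hm, Herm.herm_single_right hF]

/-- A pair in the first plane, the unit vectors, and the spanning property. -/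
theorem exists_frame (m : ℕ) : ∃ e f : Fin (2 + m) → F, Pair q e f ∧
    (∀ k : Fin m, InW q e f (yStd k)) ∧
    (∀ i j : Fin m, hm q (yStd (F := F) i) (yStd j) = if i = j then 1 else 0) ∧
    (∀ x, InW q e f x → x = ∑ i, hm q x (yStd i) • yStd i) ∧
    ∃ e₀ f₀ : Fin 2 → F, e = Fin.append e₀ 0 ∧ f = Fin.append f₀ 0 := by
  have hq0 := q_ne hF
  obtain ⟨e₀, f₀, h₀⟩ := exists_pair hF (n := 2) le_rfl
  have hD : e₀ 0 * f₀ 1 - e₀ 1 * f₀ 0 ≠ 0 := by
    intro hD
    have hpar : ∃ c : F, f₀ = c • e₀ := by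
      by_cases h0 : e₀ 0 = 0
      · have he := h₀.ee
        simp [hm, Cfsg.hermForm, Fin.sum_univ_two, h0] at he
        have he1 : e₀ 1 = 0 := by rcases he with h | ⟨h, -⟩ <;> exact h
        exact absurd (funext fun i => by fin_cases i <;> simp [h0, he1]) h₀.e_ne
      · refine ⟨f₀ 0 / e₀ 0, funext fun i => ?_⟩
        fin_cases i <;> simp <;> field_simp
        linear_combination hD
    obtain ⟨c, hc⟩ := hpar
    have := h₀.ef
    rw [hc, hm_smul_right, h₀.ee, mul_zero] at this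
    exact zero_ne_one this
  have hzero : ∀ u : Fin 2 → F, hm q u e₀ = 0 → hm q u f₀ = 0 → u = 0 := by
    intro u h1 h2
    simp [hm, Cfsg.hermForm, Fin.sum_univ_two] at h1 h2
    have hD' : (e₀ 0) ^ q * (f₀ 1) ^ q - (e₀ 1) ^ q * (f₀ 0) ^ q ≠ 0 := by
      rw [← mul_pow, ← mul_pow, ← Herm.conj_sub hF]
      exact pow_ne_zero _ hD
    have a0 : u 0 = 0 := (mul_eq_zero.1 (show u 0 * ((e₀ 0) ^ q * (f₀ 1) ^ q - (e₀ 1) ^ q * (f₀ 0) ^ q) = 0 by
      linear_combination (f₀ 1) ^ q * h1 - (e₀ 1) ^ q * h2)).resolve_right hD'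
    have a1 : u 1 = 0 := (mul_eq_zero.1 (show u 1 * ((e₀ 0) ^ q * (f₀ 1) ^ q - (e₀ 1) ^ q * (f₀ 0) ^ q) = 0 by
      linear_combination (e₀ 0) ^ q * h2 - (f₀ 0) ^ q * h1)).resolve_right hD'
    funext i; fin_cases i <;> simp [a0, a1]
  have h00 : ∀ (k : ℕ) (v : Fin k → F), hm q v 0 = 0 := fun k v => hm_zero_right hF v
  have happ : ∀ x : Fin (2 + m) → F, x = Fin.append (fun i => x (Fin.castAdd m i)) (fun i => x (Fin.natAdd 2 i)) :=
    fun x => funext fun i => Fin.addCases (fun i => by simp) (fun i => by simp) i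
  have hcomp : ∀ (x : Fin (2 + m) → F) k, hm q x (yStd k) = x (Fin.natAdd 2 k) := fun x k => by
    conv_lhs => rw [happ x]
    rw [yStd, hm_append hq0, h00, hm_single hF, zero_add]
  refine ⟨Fin.append e₀ 0, Fin.append f₀ 0, ⟨?_, ?_, ?_, ?_⟩, fun k => ?_, fun i j => ?_, fun x hx => ?_,
    e₀, f₀, rfl, rfl⟩
  · rw [hm_append hq0, h00, h₀.ee, add_zero]
  · rw [hm_append hq0, h00, h₀.ff, add_zero]
  · rw [hm_append hq0, h00, h₀.ef, add_zero]
  · rw [hm_append hq0, h00, h₀.fe, add_zero]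
  · exact ⟨by rw [yStd, hm_append hq0, h00, hm_zero_left, add_zero],
      by rw [yStd, hm_append hq0, h00, hm_zero_left, add_zero]⟩
  · rw [hcomp, yStd, Fin.append_right, Pi.single_apply]
    simp [eq_comm]
  · have h2 : (fun i => x (Fin.castAdd m i)) = (0 : Fin 2 → F) := by
      have h1 := hx.1
      have h2 := hx.2
      rw [happ x, hm_append hq0, h00, add_zero] at h1 h2
      exact hzero _ h1 h2
    funext i
    induction i using Fin.addCases with
    | left i =>
      rw [Finset.sum_apply, Finset.sum_eq_zero fun k _ => by simp [yStd]]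
      exact congrFun h2 i
    | right i =>
      rw [Finset.sum_apply, Finset.sum_eq_single i (fun k _ hk => by simp [yStd, Pi.single_apply, Ne.symm hk])
        (by simp), hcomp]
      simp [yStd]

open Fin.NatCast in
/-- The signed cycle. -/
theorem exists_cycle (k : ℕ) : ∃ (s : S (2 + (k + 3)) F q) (c : Fin (k + 3) → F), (∀ i, c i ≠ 0) ∧
    (∀ i, mat s *ᵥ yStd i = c i • yStd (i + 1)) ∧
    ∀ u : Fin 2 → F, mat s *ᵥ Fin.append u 0 = Fin.append u 0 := by
  classical
  set π : Equiv.Perm (Fin (2 + (k + 3))) :=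
    finSumFinEquiv.permCongr (Equiv.sumCongr (Equiv.refl (Fin 2)) (Equiv.addRight (-1 : Fin (k + 3)))) with hπ
  have πl : ∀ i, π (Fin.castAdd (k + 3) i) = Fin.castAdd (k + 3) i := fun i => by simp [hπ, Equiv.permCongr_apply]
  have πr : ∀ i, π (Fin.natAdd 2 i) = Fin.natAdd 2 (i + -1) := fun i => by simp [hπ, Equiv.permCongr_apply]
  set ε : F := ((Equiv.Perm.sign π : ℤ) : F) with hε
  have hεq : ε * ε ^ q = 1 ∧ ε * ε = 1 ∧ ε ≠ 0 := by
    rcases Int.units_eq_one_or (Equiv.Perm.sign π) with h | h <;>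
      simp [hε, h, Herm.conj_neg hF]
  set d : Fin (2 + (k + 3)) → F := Function.update 1 (Fin.natAdd 2 (0 : Fin (k + 3))) ε with hd
  set A : Matrix (Fin (2 + (k + 3))) (Fin (2 + (k + 3))) F := diagonal d * Equiv.Perm.permMatrix F π with hA
  have hAv : ∀ u i, (A *ᵥ u) i = d i * u (π i) := fun u i => by
    rw [hA, ← mulVec_mulVec, mulVec_diagonal, permMatrix_mulVec]
    rfl
  have hdet : A.det = 1 := by
    rw [hA, det_mul, det_diagonal, det_permutation, hd, Finset.prod_update_of_mem (Finset.mem_univ _)]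
    simpa [hε] using hεq.2.1
  have hAh : ∀ u v, Cfsg.hermForm (2 + (k + 3)) F q (A *ᵥ u) (A *ᵥ v) = Cfsg.hermForm (2 + (k + 3)) F q u v := by
    intro u v
    simp only [Cfsg.hermForm, hAv]
    conv_rhs => rw [← Equiv.sum_comp π]
    refine Finset.sum_congr rfl fun i _ => ?_
    rcases eq_or_ne i (Fin.natAdd 2 (0 : Fin (k + 3))) with rfl | h
    · rw [hd, Function.update_self, mul_pow]
      linear_combination (u (π (Fin.natAdd 2 (0 : Fin (k + 3)))) * v (π (Fin.natAdd 2 (0 : Fin (k + 3)))) ^ q) * hεq.1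
    · rw [hd, Function.update_of_ne h, Pi.one_apply, one_mul, one_mul]
  refine ⟨⟨⟨A, hdet⟩, hAh⟩, fun i => if i + 1 = 0 then ε else 1, fun i => ?_, fun i => ?_, fun u => ?_⟩
  · simp only
    split_ifs
    exacts [hεq.2.2, one_ne_zero]
  · show A *ᵥ _ = _
    funext j
    rw [hAv, Pi.smul_apply, smul_eq_mul]
    induction j using Fin.addCases with
    | left j => rw [πl, yStd, yStd, Fin.append_left, Fin.append_left]; simp
    | right j =>
      rw [πr, yStd, yStd, Fin.append_right, Fin.append_right, Pi.single_apply, Pi.single_apply]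
      by_cases hji : j = i + 1
      · subst hji
        rw [if_pos (add_neg_cancel_right i 1), if_pos rfl, mul_one, mul_one, hd]
        beta_reduce
        by_cases h0 : i + 1 = 0
        · rw [if_pos h0, h0, Function.update_self]
        · rw [if_neg h0, Function.update_of_ne (fun h => h0 (Fin.natAdd_injective _ _ h)), Pi.one_apply]
      · rw [if_neg hji, if_neg (fun h => hji (by rw [← h, neg_add_cancel_right])), mul_zero, mul_zero]
  · show A *ᵥ _ = _
    funext j
    rw [hAv]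
    induction j using Fin.addCases with
    | left j =>
      rw [πl, hd, Function.update_of_ne, Pi.one_apply, one_mul]
      intro h
      have := congrArg Fin.val h
      simp at this
      omega
    | right j => rw [πr, Fin.append_right, Fin.append_right]; simp

/-- Two generators of `SU_n`. -/
theorem two_gen_SU {n : ℕ} (hn : 3 ≤ n) (h : 5 ≤ n ∨ 3 ≤ q) :
    ∃ a b : S n F q, Subgroup.closure ({a, b} : Set (S n F q)) = ⊤ := by
  obtain ⟨m, rfl⟩ : ∃ m, n = 2 + m := ⟨n - 2, by omega⟩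
  obtain ⟨e, f, HP, hy, hon, hspan, e₀, f₀, he, hf⟩ := exists_frame hF m
  by_cases hm' : 3 ≤ m
  · obtain ⟨k, rfl⟩ : ∃ k, m = k + 3 := ⟨m - 3, by omega⟩
    obtain ⟨s, c, hc, hsy, hsf⟩ := exists_cycle hF k
    have hs : IsLevi q e f s 1 := ⟨one_ne_zero, by rw [he, hsf, one_smul],
      by rw [hf, hsf, one_pow, inv_one, one_smul]⟩
    exact gen_big hF HP (Or.inr (by omega)) hy hon hspan hs hc hsy
  · have hq : 3 ≤ q := h.resolve_left (by omega)
    rcases (show m = 1 ∨ m = 2 by omega) with rfl | rfl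
    · refine gen_small hF HP (y := yStd 0) (z := 0) hq (hy 0) (by rw [hon, if_pos rfl]) (InW.zero e f)
        (hm_zero_left _) fun x hx => ?_
      conv_lhs => rw [hspan x hx]
      simp
    · refine gen_small hF HP (y := yStd 1) (z := yStd 0) hq (hy 1) (by rw [hon, if_pos rfl]) (hy 0)
        (by rw [hon, if_neg (by decide)]) fun x hx => ?_
      conv_lhs => rw [hspan x hx]
      rw [Fin.sum_univ_two]; exact add_comm _ _

/-- Two generators of `PSU_n`. -/
theorem two_gen_PSU {n : ℕ} (hn : 3 ≤ n) (h32 : n = 3 → q ≠ 2) :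
    ∃ a b : Cfsg.PSU n F q, Subgroup.closure ({a, b} : Set (Cfsg.PSU n F q)) = ⊤ := by
  by_cases h42 : n = 4 ∧ q = 2
  · obtain ⟨rfl, rfl⟩ := h42
    haveI : Fact (Nat.Prime 3) := ⟨Nat.prime_three⟩
    obtain ⟨E⟩ := Cfsg.Agent.S0822.result (F := F) (K := ZMod 3) (by simpa using hF) (ZMod.card 3)
    obtain ⟨a, b, hab⟩ := BoundedPres.Sp.two_gen_psp (F := ZMod 3) 2 le_rfl
      fun _ => by rw [ZMod.card]; norm_num
    refine ⟨E.symm a, E.symm b, ?_⟩
    rw [← Set.image_pair, ← MulEquiv.coe_toMonoidHom, ← MonoidHom.map_closure, hab]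
    exact Subgroup.map_top_of_surjective _ E.symm.surjective
  · have hq := Herm.two_le_q hF
    obtain ⟨a, b, hab⟩ := two_gen_SU hF hn (by omega)
    refine ⟨pr a, pr b, ?_⟩
    rw [← Set.image_pair, ← MonoidHom.map_closure, hab]
    exact Subgroup.map_top_of_surjective _ pr_surjective

end Cfsg.Agent.Lib.Classical.UnitaryTwoGen
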